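import Mathlib
import Cfsg.Agent.Lib.Helper17.R3.Defs
import Cfsg.Agent.Lib.Helper94.OMG.Defs
import Cfsg.Agent.Lib.Helper46.OPG.SiegOm
import Cfsg.Agent.Lib.Helper76.Siegel.Exist
import Cfsg.Agent.Lib.Helper14.Levi

/-!
# Project R3 (S1788): package [OMINUS]

`PΩ⁻_{2m}(F)`, `F` finite of characteristic 2, `m ≥ 4`, has 2-rank at least 3: the three Siegel
transvections `T(e₀,e₁)`, `T(e₀,e₂)`, `T(e₁,e₂)` of the hyperbolic part (embedded by `Em`) commute,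
are involutions, lie in `Ω`, and none of the seven products commutes with `T(f₀,f₁)`.
-/

set_option autoImplicit false
open scoped Matrix MatrixGroups

namespace Cfsg.Agent.Lib.Helper90.R3

open Cfsg.Agent.Lib.Helper31.Siegel Cfsg.Agent.Lib.Helper32.OPG Cfsg.Agent.Lib.Helper64.OParM
open Cfsg.Agent.Lib.Helper94.OMG

section Act

variable {k : ℕ} {F : Type} [Field F]

/-- the action of an element of the unipotent radical of the stabiliser of `⟨e₀,e₁,e₂⟩`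
(characteristic 2 sign conventions) -/
def ActU (i0 i1 i2 : Fin k) (x y z : F) (σ : ↥(Iso k F)) : Prop :=
  ∀ v : Vec k F, mat σ *ᵥ v =
    v + (x * v (Sum.inr i1)) • (E i0 : Vec k F) + (x * v (Sum.inr i0)) • (E i1 : Vec k F)
      + (y * v (Sum.inr i2)) • (E i0 : Vec k F) + (y * v (Sum.inr i0)) • (E i2 : Vec k F)
      + (z * v (Sum.inr i2)) • (E i1 : Vec k F) + (z * v (Sum.inr i1)) • (E i2 : Vec k F)

theorem actU_congr {i0 i1 i2 : Fin k} {x y z x' y' z' : F} {σ : ↥(Iso k F)}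
    (h : ActU i0 i1 i2 x y z σ) (hx : x = x') (hy : y = y') (hz : z = z') :
    ActU i0 i1 i2 x' y' z' σ := by
  subst hx; subst hy; subst hz; exact h

theorem actU_ext {i0 i1 i2 : Fin k} {x y z : F} {σ τ : ↥(Iso k F)}
    (h : ActU i0 i1 i2 x y z σ) (h' : ActU i0 i1 i2 x y z τ) : σ = τ :=
  ext_act fun v => by rw [h v, h' v]

theorem actU_one {i0 i1 i2 : Fin k} : ActU i0 i1 i2 (0 : F) 0 0 (1 : ↥(Iso k F)) := by
  intro v
  rw [one_act]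
  simp

theorem actU_mul {i0 i1 i2 : Fin k} {x y z x' y' z' : F} {σ τ : ↥(Iso k F)}
    (h : ActU i0 i1 i2 x y z σ) (h' : ActU i0 i1 i2 x' y' z' τ) :
    ActU i0 i1 i2 (x + x') (y + y') (z + z') (σ * τ) := by
  intro v
  rw [mul_act, h' v, h]
  ext j
  simp only [Pi.add_apply, Pi.smul_apply, smul_eq_mul, Pi.single_apply, reduceCtorEq, if_false,
    mul_zero, add_zero]
  ring

theorem actU_comm {i0 i1 i2 : Fin k} {x y z x' y' z' : F} {σ τ : ↥(Iso k F)}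
    (h : ActU i0 i1 i2 x y z σ) (h' : ActU i0 i1 i2 x' y' z' τ) : σ * τ = τ * σ :=
  actU_ext (actU_mul h h')
    (actU_congr (actU_mul h' h) (add_comm _ _) (add_comm _ _) (add_comm _ _))

theorem actU_sq [CharP F 2] {i0 i1 i2 : Fin k} {x y z : F} {σ : ↥(Iso k F)}
    (h : ActU i0 i1 i2 x y z σ) : σ * σ = 1 :=
  actU_ext (actU_congr (actU_mul h h) (CharTwo.add_self_eq_zero x) (CharTwo.add_self_eq_zero y)
    (CharTwo.add_self_eq_zero z)) actU_one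

theorem actU_of_siegel01 [CharP F 2] {i0 i1 i2 : Fin k} {σ : ↥(Iso k F)}
    (h : IsSiegel (E i0 : Vec k F) (E i1) 1 σ) : ActU i0 i1 i2 1 0 0 σ := by
  intro v
  rw [h v, B_E, B_E]
  ext j
  simp only [Pi.add_apply, Pi.sub_apply, Pi.smul_apply, smul_eq_mul]
  rw [CharTwo.sub_eq_add]
  ring

theorem actU_of_siegel02 [CharP F 2] {i0 i1 i2 : Fin k} {σ : ↥(Iso k F)}
    (h : IsSiegel (E i0 : Vec k F) (E i2) 1 σ) : ActU i0 i1 i2 0 1 0 σ := by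
  intro v
  rw [h v, B_E, B_E]
  ext j
  simp only [Pi.add_apply, Pi.sub_apply, Pi.smul_apply, smul_eq_mul]
  rw [CharTwo.sub_eq_add]
  ring

theorem actU_of_siegel12 [CharP F 2] {i0 i1 i2 : Fin k} {σ : ↥(Iso k F)}
    (h : IsSiegel (E i1 : Vec k F) (E i2) 1 σ) : ActU i0 i1 i2 0 0 1 σ := by
  intro v
  rw [h v, B_E, B_E]
  ext j
  simp only [Pi.add_apply, Pi.sub_apply, Pi.smul_apply, smul_eq_mul]
  rw [CharTwo.sub_eq_add]
  ring

/-- an element of the radical commuting with `T(f₀,f₁)` is trivial -/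
theorem actU_comm_zero {i0 i1 i2 : Fin k} (h01 : i0 ≠ i1) (h02 : i0 ≠ i2) (h12 : i1 ≠ i2)
    {x y z : F} {σ τ : ↥(Iso k F)} (hσ : ActU i0 i1 i2 x y z σ)
    (hτ : IsSiegel (Fv i0 : Vec k F) (Fv i1) 1 τ) (hc : σ * τ = τ * σ) :
    x = 0 ∧ y = 0 ∧ z = 0 := by
  have hA : ∀ v, mat σ *ᵥ (mat τ *ᵥ v) = mat τ *ᵥ (mat σ *ᵥ v) := by
    intro v
    rw [← mul_act, ← mul_act, hc]
  have e1 := hA (E i1)
  have e0 := hA (E i0)
  have hx := congrFun e1 (Sum.inl i1)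
  have hy := congrFun e1 (Sum.inl i2)
  have hz := congrFun e0 (Sum.inl i2)
  simp only [hσ _, hτ _, B_Fv] at hx hy hz
  simp [Pi.single_apply, h01, h01.symm, h02, h02.symm, h12, h12.symm] at hx hy hz
  exact ⟨hx, hy, hz⟩

end Act

section Main

variable {k : ℕ} {F : Type} [Field F]

/-- the embedding `Ω⁺_{2k} → Ω⁻_{2k+2}` -/
noncomputable def psiOm (k : ℕ) (F : Type) [Field F] (a b : F) :
    ↥(Cfsg.Omega F (Cfsg.quadFormPlus k F)) →* ↥(Cfsg.Omega F (Cfsg.quadFormMinus k F a b)) :=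
  MonoidHom.codRestrict ((Em k F a b).comp (Subgroup.subtype _)) _
    (fun x => Cfsg.Agent.Lib.Helper14.map_mem_commutator' (Em k F a b) x.2)

theorem psiOm_injective (a b : F) : Function.Injective (psiOm k F a b) := by
  intro s t h
  have h1 : Em k F a b s.1 = Em k F a b t.1 := congrArg Subtype.val h
  apply Subtype.ext
  apply ext_act
  intro v
  have h2 : matM (Em k F a b s.1) *ᵥ (Sum.elim v 0 : MI k → F)
      = matM (Em k F a b t.1) *ᵥ (Sum.elim v 0 : MI k → F) := by rw [h1]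
  rw [matM_Em, matM_Em] at h2
  have h3 := congrArg (fun w : MI k → F => w ∘ Sum.inl) h2
  simpa using h3

theorem actU_noncentral [Fintype F] (hk : 3 ≤ k) (a b : F) {i0 i1 i2 : Fin k} (h01 : i0 ≠ i1)
    (h02 : i0 ≠ i2) (h12 : i1 ≠ i2) (s : ↥(Cfsg.Omega F (Cfsg.quadFormPlus k F))) (x y z : F)
    (hs : ActU i0 i1 i2 x y z s.1) (hne : ¬ (x = 0 ∧ y = 0 ∧ z = 0)) :
    (QuotientGroup.mk' (Subgroup.center ↥(Cfsg.Omega F (Cfsg.quadFormMinus k F a b))))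
      (psiOm k F a b s) ≠ 1 := by
  intro h
  rw [QuotientGroup.mk'_apply, QuotientGroup.eq_one_iff] at h
  obtain ⟨τ, hτ⟩ := Cfsg.Agent.Lib.Helper76.Siegel.pkgExist k F (Fv i0 : Vec k F) (Fv i1)
    (isSingLine_Fv_Fv h01) 1
  have hτΩ : τ ∈ Cfsg.Omega F (Cfsg.quadFormPlus k F) :=
    Cfsg.Agent.Lib.Helper46.OPG.isSiegel_mem_omega k F hk _ _ (isSingLine_Fv_Fv h01) 1 τ hτ
  have h1 := Subgroup.mem_center_iff.mp h (psiOm k F a b ⟨τ, hτΩ⟩)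
  rw [← map_mul, ← map_mul] at h1
  have h2 := psiOm_injective a b h1
  have h3 : τ * s.1 = s.1 * τ := congrArg Subtype.val h2
  exact hne (actU_comm_zero h01 h02 h12 hs hτ h3.symm)

theorem pOMinus_aux (F : Type) [Field F] [Fintype F] [CharP F 2] (k : ℕ) (a b : F) (hk : 3 ≤ k) :
    Cfsg.PRankAtLeast 2 3 (Cfsg.POmega F (Cfsg.quadFormMinus k F a b)) := by
  let i0 : Fin k := ⟨0, by omega⟩
  let i1 : Fin k := ⟨1, by omega⟩
  let i2 : Fin k := ⟨2, by omega⟩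
  have h01 : i0 ≠ i1 := by simp [i0, i1, Fin.ext_iff]
  have h02 : i0 ≠ i2 := by simp [i0, i2, Fin.ext_iff]
  have h12 : i1 ≠ i2 := by simp [i1, i2, Fin.ext_iff]
  obtain ⟨σ1, hσ1⟩ := Cfsg.Agent.Lib.Helper76.Siegel.pkgExist k F (E i0 : Vec k F) (E i1)
    (isSingLine_E_E h01) 1
  obtain ⟨σ2, hσ2⟩ := Cfsg.Agent.Lib.Helper76.Siegel.pkgExist k F (E i0 : Vec k F) (E i2)
    (isSingLine_E_E h02) 1
  obtain ⟨σ3, hσ3⟩ := Cfsg.Agent.Lib.Helper76.Siegel.pkgExist k F (E i1 : Vec k F) (E i2)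
    (isSingLine_E_E h12) 1
  have hΩ1 : σ1 ∈ Cfsg.Omega F (Cfsg.quadFormPlus k F) :=
    Cfsg.Agent.Lib.Helper46.OPG.isSiegel_mem_omega k F hk _ _ (isSingLine_E_E h01) 1 σ1 hσ1
  have hΩ2 : σ2 ∈ Cfsg.Omega F (Cfsg.quadFormPlus k F) :=
    Cfsg.Agent.Lib.Helper46.OPG.isSiegel_mem_omega k F hk _ _ (isSingLine_E_E h02) 1 σ2 hσ2
  have hΩ3 : σ3 ∈ Cfsg.Omega F (Cfsg.quadFormPlus k F) :=
    Cfsg.Agent.Lib.Helper46.OPG.isSiegel_mem_omega k F hk _ _ (isSingLine_E_E h12) 1 σ3 hσ3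
  have a1 : ActU i0 i1 i2 1 0 0 σ1 := actU_of_siegel01 hσ1
  have a2 : ActU i0 i1 i2 0 1 0 σ2 := actU_of_siegel02 hσ2
  have a3 : ActU i0 i1 i2 0 0 1 σ3 := actU_of_siegel12 hσ3
  let s1 : ↥(Cfsg.Omega F (Cfsg.quadFormPlus k F)) := ⟨σ1, hΩ1⟩
  let s2 : ↥(Cfsg.Omega F (Cfsg.quadFormPlus k F)) := ⟨σ2, hΩ2⟩
  let s3 : ↥(Cfsg.Omega F (Cfsg.quadFormPlus k F)) := ⟨σ3, hΩ3⟩
  have c12 : s1 * s2 = s2 * s1 := Subtype.ext (actU_comm a1 a2)
  have c13 : s1 * s3 = s3 * s1 := Subtype.ext (actU_comm a1 a3)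
  have c23 : s2 * s3 = s3 * s2 := Subtype.ext (actU_comm a2 a3)
  have q1 : s1 * s1 = 1 := Subtype.ext (actU_sq a1)
  have q2 : s2 * s2 = 1 := Subtype.ext (actU_sq a2)
  have q3 : s3 * s3 = 1 := Subtype.ext (actU_sq a3)
  let Φ : ↥(Cfsg.Omega F (Cfsg.quadFormPlus k F)) →*
      Cfsg.POmega F (Cfsg.quadFormMinus k F a b) :=
    (QuotientGroup.mk' (Subgroup.center ↥(Cfsg.Omega F (Cfsg.quadFormMinus k F a b)))).comp
      (psiOm k F a b)
  have hΦ : ∀ (s : ↥(Cfsg.Omega F (Cfsg.quadFormPlus k F))) (x y z : F),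
      ActU i0 i1 i2 x y z s.1 → ¬ (x = 0 ∧ y = 0 ∧ z = 0) → Φ s ≠ 1 :=
    fun s x y z hs hne => actU_noncentral hk a b h01 h02 h12 s x y z hs hne
  refine Cfsg.Agent.Lib.Helper17.R3.r3_of_three (Φ s1) (Φ s2) (Φ s3) ?_ ?_ ?_ ?_ ?_ ?_ ?_ ?_ ?_
    ?_ ?_ ?_ ?_
  · rw [← map_mul, ← map_mul, c12]
  · rw [← map_mul, ← map_mul, c13]
  · rw [← map_mul, ← map_mul, c23]
  · rw [← map_mul, q1, map_one]
  · rw [← map_mul, q2, map_one]
  · rw [← map_mul, q3, map_one]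
  · exact hΦ s1 1 0 0 a1 (by simp)
  · exact hΦ s2 0 1 0 a2 (by simp)
  · rw [← map_mul]
    exact hΦ (s1 * s2) _ _ _ (actU_mul a1 a2) (by simp)
  · exact hΦ s3 0 0 1 a3 (by simp)
  · rw [← map_mul]
    exact hΦ (s1 * s3) _ _ _ (actU_mul a1 a3) (by simp)
  · rw [← map_mul]
    exact hΦ (s2 * s3) _ _ _ (actU_mul a2 a3) (by simp)
  · rw [← map_mul, ← map_mul]
    exact hΦ (s1 * s2 * s3) _ _ _ (actU_mul (actU_mul a1 a2) a3) (by simp)

/-- [OMINUS] `PΩ⁻_{2m}(F)`, `F` of characteristic 2, `m ≥ 4`. -/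
theorem pkgPOMinus : Cfsg.Agent.Lib.Helper17.R3.PkgPOMinus := by
  intro F _ _ _ m a b hm _
  exact pOMinus_aux F (m - 1) a b (by omega)

end Main

end Cfsg.Agent.Lib.Helper90.R3
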